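-- helper20: package [COP] of S5010 (helper39's project): an automorphism of p-power order of a
-- nilpotent p'-group acting trivially on R / R' is trivial.
import Mathlib
import Cfsg.Agent.Lib.Helper39.SqfDeg.Defs

set_option autoImplicit false

namespace Cfsg.Agent.Lib.Helper20.SqfDeg

universe u

section
variable {R : Type u} [Group R]

theorem commutator_char (R : Type u) [Group R] : (commutator R).Characteristic := by
  rw [commutator_def]
  infer_instance

theorem aut_mem_commutator_iff (σ : MulAut R) (y : R) : σ y ∈ commutator R ↔ y ∈ commutator R := by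
  have h := Subgroup.characteristic_iff_comap_eq.mp (commutator_char R) σ
  constructor
  · intro hy
    rw [← h]
    exact hy
  · intro hy
    rw [← h] at hy
    exact hy

/-- the fixed subgroup of an automorphism -/
def fixSub (σ : MulAut R) : Subgroup R where
  carrier := {r | σ r = r}
  one_mem' := map_one σ
  mul_mem' := by
    intro a b ha hb
    show σ (a * b) = a * b
    rw [map_mul, ha, hb]
  inv_mem' := by
    intro a ha
    show σ a⁻¹ = a⁻¹
    rw [map_inv, ha]

theorem mem_fixSub (σ : MulAut R) (r : R) : r ∈ fixSub σ ↔ σ r = r := Iff.rfl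

/-- a fixed point in every `σ`-stable coset of the commutator subgroup -/
theorem exists_fixed_in_coset [Finite R] (p : ℕ) [hp : Fact p.Prime] (σ : MulAut R) (k : ℕ)
    (hcop : (Nat.card R).Coprime p) (hσ : σ ^ (p ^ k) = 1)
    (r : R) (hr : r⁻¹ * σ r ∈ commutator R) :
    ∃ c : R, σ c = c ∧ r⁻¹ * c ∈ commutator R := by
  classical
  have hmaps : ∀ x : R, r⁻¹ * x ∈ commutator R → r⁻¹ * σ x ∈ commutator R := by
    intro x hx
    have h1 : r⁻¹ * σ x = (r⁻¹ * σ r) * σ (r⁻¹ * x) := by
      rw [map_mul, map_inv]; group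
    rw [h1]
    exact mul_mem hr ((aut_mem_commutator_iff σ _).mpr hx)
  have hmaps' : ∀ x : R, r⁻¹ * x ∈ commutator R → r⁻¹ * σ⁻¹ x ∈ commutator R := by
    intro x hx
    have h2 : σ (r⁻¹ * σ⁻¹ x) = (r⁻¹ * σ r)⁻¹ * (r⁻¹ * x) := by
      rw [map_mul, map_inv, MulAut.apply_inv_self]; group
    rw [← aut_mem_commutator_iff σ, h2]
    exact mul_mem (inv_mem hr) hx
  let X := {x : R // r⁻¹ * x ∈ commutator R}
  let τ : Equiv.Perm X :=
    { toFun := fun x => ⟨σ x.1, hmaps x.1 x.2⟩
      invFun := fun x => ⟨σ⁻¹ x.1, hmaps' x.1 x.2⟩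
      left_inv := by
        intro x
        apply Subtype.ext
        exact MulAut.inv_apply_self _ _ _
      right_inv := by
        intro x
        apply Subtype.ext
        exact MulAut.apply_inv_self _ _ _ }
  have hτpow : ∀ (n : ℕ) (x : X), ((τ ^ n) x : R) = (σ ^ n) x.1 := by
    intro n
    induction n with
    | zero => intro x; rfl
    | succ n ih =>
      intro x
      rw [pow_succ', pow_succ', Equiv.Perm.mul_apply, MulAut.mul_apply, ← ih x]
      rfl
  have hτ : τ ^ (p ^ k) = 1 := by
    apply Equiv.ext
    intro x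
    apply Subtype.ext
    rw [hτpow, hσ]
    rfl
  have : Fintype X := Fintype.ofFinite X
  have hcard : ¬ p ∣ Fintype.card X := by
    rw [← Nat.card_eq_fintype_card]
    have e : X ≃ commutator R :=
      { toFun := fun x => ⟨r⁻¹ * x.1, x.2⟩
        invFun := fun c => ⟨r * c.1, by
          show r⁻¹ * (r * c.1) ∈ commutator R
          rw [inv_mul_cancel_left]; exact c.2⟩
        left_inv := by
          intro x
          apply Subtype.ext
          show r * (r⁻¹ * x.1) = x.1
          rw [mul_inv_cancel_left]
        right_inv := by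
          intro c
          apply Subtype.ext
          show r⁻¹ * (r * c.1) = c.1
          rw [inv_mul_cancel_left] }
    rw [Nat.card_congr e]
    intro hdvd
    have h3 : p ∣ Nat.card R := hdvd.trans (Subgroup.card_subgroup_dvd_card _)
    have h4 : p ∣ Nat.gcd (Nat.card R) p := Nat.dvd_gcd h3 dvd_rfl
    rw [hcop] at h4
    exact hp.out.one_lt.ne' (Nat.dvd_one.mp h4)
  obtain ⟨x, hx⟩ := Equiv.Perm.exists_fixed_point_of_prime hcard hτ
  refine ⟨x.1, ?_, x.2⟩
  exact congrArg Subtype.val hx

end

theorem pkgCoprime : Cfsg.Agent.Lib.Helper39.SqfDeg.PkgCoprime.{u} := by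
  intro R _ _ _ p _ σ k hcop hσ hcomm
  suffices hC : fixSub σ = ⊤ by
    intro r
    have : r ∈ fixSub σ := by rw [hC]; trivial
    exact this
  have hsup : fixSub σ ⊔ commutator R = ⊤ := by
    rw [eq_top_iff]
    intro r _
    obtain ⟨c, hc, hrc⟩ := exists_fixed_in_coset p σ k hcop hσ r (hcomm r)
    have h1 : r = c * (r⁻¹ * c)⁻¹ := by group
    rw [h1]
    exact Subgroup.mul_mem_sup hc (inv_mem hrc)
  by_contra hne
  obtain ⟨M, hM, hCM⟩ := (eq_top_or_exists_le_coatom (fixSub σ)).resolve_left hne
  have hMn : M.Normal := Subgroup.NormalizerCondition.normal_of_coatom M Group.normalizerCondition_of_isNilpotent hM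
  have hRM : commutator R ≤ M := by
    by_contra h
    have hlt : M < M ⊔ commutator R := by
      refine lt_of_le_of_ne le_sup_left ?_
      intro he
      apply h
      rw [he]
      exact le_sup_right
    have hsup2 : M ⊔ commutator R = ⊤ := hM.2 _ hlt
    have hnt : Nontrivial (R ⧸ M) := by
      rw [QuotientGroup.nontrivial_iff]
      exact hM.1
    have hltc := Group.IsSolvable.commutator_lt_top_of_nontrivial (G := R ⧸ M)
    have h1 : Subgroup.map (QuotientGroup.mk' M) (commutator R) = ⊤ := by
      have h2 : Subgroup.map (QuotientGroup.mk' M) (M ⊔ commutator R) = ⊤ := by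
        rw [hsup2]
        exact Subgroup.map_top_of_surjective _ (QuotientGroup.mk'_surjective M)
      rw [Subgroup.map_sup, QuotientGroup.map_mk'_self, bot_sup_eq] at h2
      exact h2
    rw [commutator_def, Subgroup.map_commutator,
      Subgroup.map_top_of_surjective _ (QuotientGroup.mk'_surjective M)] at h1
    rw [commutator_def] at hltc
    exact hltc.ne h1
  have h5 : fixSub σ ⊔ commutator R ≤ M := sup_le hCM hRM
  rw [hsup] at h5
  exact hM.1 (top_le_iff.mp h5)

end Cfsg.Agent.Lib.Helper20.SqfDeg
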