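-- helper20: package [HYP] of S5010 (helper39's project): the hyperplane lemma.
import Mathlib
import Cfsg.Agent.Lib.Helper39.SqfDeg.Defs

set_option autoImplicit false

namespace Cfsg.Agent.Lib.Helper20.SqfDeg

universe u

section
variable {W : Type u} [CommGroup W]

/-- stabilizer of a point in a subgroup of `MulAut W` -/
def stb (A : Subgroup (MulAut W)) (w : W) : Subgroup A where
  carrier := {a | (a : MulAut W) w = w}
  one_mem' := by
    show ((1 : A) : MulAut W) w = w
    rfl
  mul_mem' := by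
    intro a b ha hb
    show ((a * b : A) : MulAut W) w = w
    rw [Subgroup.coe_mul, MulAut.mul_apply, hb, ha]
  inv_mem' := by
    intro a ha
    show ((a⁻¹ : A) : MulAut W) w = w
    rw [Subgroup.coe_inv]
    have h1 : (a : MulAut W)⁻¹ ((a : MulAut W) w) = w := MulAut.inv_apply_self _ _ _
    rw [ha] at h1
    exact h1

theorem mem_stb (A : Subgroup (MulAut W)) (w : W) (a : A) :
    a ∈ stb A w ↔ (a : MulAut W) w = w := Iff.rfl

theorem no_tor_pow (p : ℕ) (htor : ∀ w : W, w ^ p = 1 → w = 1) (k : ℕ) (w : W)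
    (h : w ^ (p ^ k) = 1) : w = 1 := by
  induction k generalizing w with
  | zero => simpa using h
  | succ k ih =>
    apply ih
    apply htor
    rw [← pow_mul, ← pow_succ]
    exact h

/-- the core of the hyperplane lemma, for a finite subgroup of `MulAut W`. -/
theorem hyp_core (A : Subgroup (MulAut W)) [Finite A] (p : ℕ) [hp : Fact p.Prime]
    (htor : ∀ w : W, w ^ p = 1 → w = 1)
    (hA : ∀ a : A, ∃ k : ℕ, a ^ (p ^ k) = 1)
    (hst : ∀ w : W, (stb A w).index ∣ p) :
    Nat.card A ∣ p := by
  have hpg : IsPGroup p A := hA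
  -- index is 1 or p
  have hidx : ∀ w : W, stb A w = ⊤ ∨ (stb A w).index = p := by
    intro w
    rcases (Nat.dvd_prime hp.out).mp (hst w) with h | h
    · left; exact Subgroup.index_eq_one.mp h
    · right; exact h
  have hcard : ∀ w : W, stb A w ≠ ⊤ → Nat.card (stb A w) * p = Nat.card A := by
    intro w hw
    rcases hidx w with h | h
    · exact absurd h hw
    · rw [← h]; exact Subgroup.card_mul_index _
  by_contra hcon
  -- pointwise commutativity
  have hcomm : ∀ (a b : A) (w : W), (a : MulAut W) ((b : MulAut W) w) = (b : MulAut W) ((a : MulAut W) w) := by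
    intro a b w
    rcases hidx w with h | h
    · have ha : a ∈ stb A w := by rw [h]; trivial
      have hb : b ∈ stb A w := by rw [h]; trivial
      rw [mem_stb] at ha hb
      rw [hb, ha, hb]
    · -- normal of index p
      have hpA : p ∣ Nat.card A := by
        rw [← Subgroup.card_mul_index (stb A w), h]
        exact dvd_mul_left _ _
      have hmin : (Nat.card A).minFac = p := by
        obtain ⟨n, hn⟩ := hpg.exists_card_eq
        rw [hn]
        have hn0 : n ≠ 0 := by
          rintro rfl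
          rw [hn, pow_zero] at hpA
          exact hp.out.one_lt.ne' (Nat.dvd_one.mp hpA)
        exact hp.out.pow_minFac hn0
      have hnorm : (stb A w).Normal :=
        Subgroup.normal_of_index_eq_minFac_card (by rw [h, hmin])
      have hQ : Nat.card (A ⧸ stb A w) = p := by
        rw [← Subgroup.index_eq_card]; exact h
      have : IsCyclic (A ⧸ stb A w) := isCyclic_of_prime_card hQ
      have hmem : a⁻¹ * b⁻¹ * a * b ∈ stb A w := by
        rw [← QuotientGroup.eq_one_iff]
        simp only [QuotientGroup.mk_mul, QuotientGroup.mk_inv]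
        have hc : ((a : A ⧸ stb A w)) * (b : A ⧸ stb A w) = (b : A ⧸ stb A w) * (a : A ⧸ stb A w) :=
          IsMulCommutative.is_comm.comm _ _
        calc ((a : A ⧸ stb A w))⁻¹ * (b : A ⧸ stb A w)⁻¹ * (a : A ⧸ stb A w) * (b : A ⧸ stb A w)
            = ((a : A ⧸ stb A w))⁻¹ * (b : A ⧸ stb A w)⁻¹ * ((a : A ⧸ stb A w) * (b : A ⧸ stb A w)) := by
              group
          _ = 1 := by rw [hc]; group
      rw [mem_stb] at hmem
      have h2 : (b : MulAut W) ((a : MulAut W) (((a⁻¹ * b⁻¹ * a * b : A) : MulAut W) w))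
          = (a : MulAut W) ((b : MulAut W) w) := by
        simp only [Subgroup.coe_mul, Subgroup.coe_inv, MulAut.mul_apply, MulAut.apply_inv_self]
      rw [hmem] at h2
      exact h2.symm
  -- A is nontrivial
  have hA1 : Nat.card A ≠ 1 := by
    intro h; apply hcon; rw [h]; exact one_dvd _
  have hnt : ∃ a0 : A, a0 ≠ 1 := by
    by_contra hne
    rw [not_exists] at hne
    apply hA1
    rw [Nat.card_eq_one_iff_unique]
    refine ⟨⟨fun a b => ?_⟩, ⟨1⟩⟩
    rw [not_not.mp (hne a), not_not.mp (hne b)]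
  have hfaith : ∀ a : A, a ≠ 1 → ∃ w : W, (a : MulAut W) w ≠ w := by
    intro a ha
    by_contra hne
    rw [not_exists] at hne
    apply ha
    apply Subtype.ext
    apply MulEquiv.ext
    intro w
    exact not_not.mp (hne w)
  obtain ⟨a0, ha0⟩ := hnt
  obtain ⟨w1, hw1⟩ := hfaith a0 ha0
  have hS1 : stb A w1 ≠ ⊤ := by
    intro h
    apply hw1
    have : a0 ∈ stb A w1 := by rw [h]; trivial
    exact this
  have hc1 := hcard w1 hS1
  -- S1 ≠ ⊥
  have hS1b : ∃ h1 : A, h1 ∈ stb A w1 ∧ h1 ≠ 1 := by
    by_contra hne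
    apply hcon
    have hbot : stb A w1 = ⊥ := by
      rw [Subgroup.eq_bot_iff_forall]
      intro x hx
      by_contra hx1
      exact hne ⟨x, hx, hx1⟩
    rw [hbot, Subgroup.card_bot, one_mul] at hc1
    rw [← hc1]
  obtain ⟨h1, hh1, hh1ne⟩ := hS1b
  obtain ⟨w2, hw2⟩ := hfaith h1 hh1ne
  have hS2 : stb A w2 ≠ ⊤ := by
    intro h
    apply hw2
    have : h1 ∈ stb A w2 := by rw [h]; trivial
    exact this
  have hc2 := hcard w2 hS2
  have hh1S2 : h1 ∉ stb A w2 := hw2
  have hppos : 0 < p := hp.out.pos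
  have hcard12 : Nat.card (stb A w1) = Nat.card (stb A w2) := by
    have : Nat.card (stb A w1) * p = Nat.card (stb A w2) * p := by rw [hc1, hc2]
    exact Nat.eq_of_mul_eq_mul_right hppos this
  -- S3 is not contained in S1
  have hS3 : ∃ h : A, h ∈ stb A (w1 * w2) ∧ h ∉ stb A w1 := by
    by_contra hne
    have hle : stb A (w1 * w2) ≤ stb A w1 := by
      intro x hx
      by_contra hx1
      exact hne ⟨x, hx, hx1⟩
    have hge : Nat.card (stb A w1) ≤ Nat.card (stb A (w1 * w2)) := by
      rcases hidx (w1 * w2) with h | h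
      · rw [h, Subgroup.card_top]
        exact Subgroup.card_le_card_group (stb A w1)
      · have h3 : Nat.card (stb A (w1 * w2)) * p = Nat.card A := by
          rw [← h]; exact Subgroup.card_mul_index _
        have : Nat.card (stb A w1) * p = Nat.card (stb A (w1 * w2)) * p := by rw [hc1, h3]
        exact (Nat.eq_of_mul_eq_mul_right hppos this).le
    have heq : stb A (w1 * w2) = stb A w1 := Subgroup.eq_of_le_of_card_ge hle hge
    have hh1S3 : h1 ∈ stb A (w1 * w2) := by rw [heq]; exact hh1
    rw [mem_stb, map_mul] at hh1S3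
    rw [mem_stb] at hh1
    rw [hh1] at hh1S3
    exact hw2 (mul_left_cancel hh1S3)
  obtain ⟨h, hh3, hh1'⟩ := hS3
  rw [mem_stb, map_mul] at hh3
  -- γ
  obtain ⟨γ, hγ⟩ : ∃ γ : W, γ = w1⁻¹ * (h : MulAut W) w1 := ⟨_, rfl⟩
  have hγ2 : γ = w2 * ((h : MulAut W) w2)⁻¹ := by
    rw [hγ]
    rw [eq_mul_inv_iff_mul_eq]
    calc w1⁻¹ * (h : MulAut W) w1 * (h : MulAut W) w2
        = w1⁻¹ * ((h : MulAut W) w1 * (h : MulAut W) w2) := by rw [mul_assoc]
      _ = w1⁻¹ * (w1 * w2) := by rw [hh3]
      _ = w2 := by rw [inv_mul_cancel_left]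
  have hγS1 : stb A w1 ≤ stb A γ := by
    intro s hs
    rw [mem_stb] at hs ⊢
    rw [hγ, map_mul, map_inv, hcomm s h w1, hs]
  have hγS2 : stb A w2 ≤ stb A γ := by
    intro s hs
    rw [mem_stb] at hs ⊢
    rw [hγ2, map_mul, map_inv, hcomm s h w2, hs]
  have hγtop : stb A γ = ⊤ := by
    rcases hidx γ with h' | h'
    · exact h'
    · exfalso
      have h3 : Nat.card (stb A γ) * p = Nat.card A := by
        rw [← h']; exact Subgroup.card_mul_index _
      have e1 : Nat.card (stb A γ) = Nat.card (stb A w1) := by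
        have : Nat.card (stb A γ) * p = Nat.card (stb A w1) * p := by rw [hc1, h3]
        exact Nat.eq_of_mul_eq_mul_right hppos this
      have heq1 : stb A w1 = stb A γ := Subgroup.eq_of_le_of_card_ge hγS1 e1.le
      have heq2 : stb A w2 = stb A γ :=
        Subgroup.eq_of_le_of_card_ge hγS2 (by rw [e1, hcard12])
      apply hh1S2
      rw [heq2, ← heq1]
      exact hh1
  have hhγ : (h : MulAut W) γ = γ := by
    have : h ∈ stb A γ := by rw [hγtop]; trivial
    exact this
  have hhw1 : (h : MulAut W) w1 = w1 * γ := by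
    rw [hγ, mul_inv_cancel_left]
  have hpow : ∀ j : ℕ, ((h ^ j : A) : MulAut W) w1 = w1 * γ ^ j := by
    intro j
    induction j with
    | zero => simp
    | succ j ih =>
      rw [pow_succ', Subgroup.coe_mul, MulAut.mul_apply, ih, map_mul, map_pow, hhγ, hhw1,
        pow_succ', mul_assoc]
  obtain ⟨k, hk⟩ := hA h
  have h4 := hpow (p ^ k)
  rw [hk] at h4
  have h5 : γ ^ (p ^ k) = 1 := by
    have h6 : ((1 : A) : MulAut W) w1 = w1 := rfl
    rw [h6] at h4
    exact (mul_eq_left.mp h4.symm)
  have h7 : γ = 1 := no_tor_pow p htor k γ h5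
  apply hh1'
  rw [mem_stb, hhw1, h7, mul_one]

end

theorem pkgHyp : Cfsg.Agent.Lib.Helper39.SqfDeg.PkgHyp.{u} := by
  intro V _ _ W _ p _ φ htor hpow hst
  rw [Subgroup.index_ker]
  have : Finite φ.range := Finite.of_surjective φ.rangeRestrict φ.rangeRestrict_surjective
  apply hyp_core φ.range p htor
  · rintro ⟨a, v, rfl⟩
    obtain ⟨k, hk⟩ := hpow v
    refine ⟨k, ?_⟩
    apply Subtype.ext
    rw [Subgroup.coe_pow, Subgroup.coe_one]
    exact hk
  · intro w
    obtain ⟨H, hH, hfix⟩ := hst w
    have hsurj : Function.Surjective φ.rangeRestrict := φ.rangeRestrict_surjective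
    have h1 : (H.map φ.rangeRestrict).index ∣ H.index := Subgroup.index_map_dvd H hsurj
    have h2 : H.map φ.rangeRestrict ≤ stb φ.range w := by
      rintro _ ⟨v, hv, rfl⟩
      rw [mem_stb]
      exact hfix v hv
    exact ((Subgroup.index_dvd_of_le h2).trans h1).trans hH

end Cfsg.Agent.Lib.Helper20.SqfDeg
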